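import Cfsg.Agent.H523.EPX.AltF4
import Cfsg.Agent.H523.EPX.AdmTwo

/-!
# S5745: `A₇` is not a subgroup of `F₄(q)`, characteristic not 2, 5 (helper523)

`f4_no_alt` : `EPS H N e` in `F₄(q)`, any `k`, `T ≅ A_n`, `n ≥ 7`: the characteristic is 2 or 5 (the core of S5926).
-/

set_option autoImplicit false

namespace Cfsg.Agent.H523.EPX

open Cfsg Cfsg.Lie Cfsg.Agent.H209.EPX Cfsg.Agent.H952.F4 Cfsg.Agent.H952.F4.Final
open Cfsg.Agent.GpExc.Field (emb emb_injective)

universe u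

/-- `A_n`, `n ≥ 7`, is not a subgroup of `F₄(q)` -/
theorem f4_no_alt_hom {F : Type u} [Field F] [Fintype F] (p : ℕ) [Fact p.Prime] [CharP F p] (h2 : p ≠ 2) (h5 : p ≠ 5)
    {n : ℕ} (hn : 7 ≤ n) (φ : ↥(alternatingGroup (Fin n)) →* ↥(chevF4.group F)) (hφ : Function.Injective φ) : False := by
  obtain ⟨i, hi⟩ := exists_alt hn
  have : CharP (AlgebraicClosure F) p := charP_of_injective_algebraMap (algebraMap F (AlgebraicClosure F)).injective p
  exact NoSeven.no_seven p h2 h5 (H944.RootVals.hAlg_closure p F)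
    ((emb hF4 (algebraMap F (AlgebraicClosure F))).comp (φ.comp i))
    ((emb_injective hF4 _).comp (hφ.comp hi))

/-- **no `A_n`, `n ≥ 7`, in `F₄(q)`, characteristic not 2, 5, any `k`** -/
theorem f4_no_alt {F : Type u} [Field F] [Fintype F] (p : ℕ) [Fact p.Prime] [CharP F p] (h2 : p ≠ 2) (h5 : p ≠ 5)
    {H N : Subgroup ↥(chevF4.group F)} {T : Type} [Group T] {k : ℕ} {e : N ≃* (Fin k → T)} (h : EPS H N e) {n : ℕ}
    (hn : 7 ≤ n) (i : T ≃* ↥(alternatingGroup (Fin n))) : False := by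
  obtain ⟨f, hf⟩ := exists_hom h
  exact f4_no_alt_hom p h2 h5 hn (f.comp i.symm.toMonoidHom) (hf.comp i.symm.injective)

end Cfsg.Agent.H523.EPX
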