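import Cfsg.Agent.H523.EPX.RowsPart
import Cfsg.Agent.H938.EPK.F4Seven

/-!
# S5745, CrossK: the fields `u33`, `j2` of `H894.EK.RowsF4`, closed (helper523; centralisers by helper938)
-/

set_option autoImplicit false

namespace Cfsg.Agent.H523.EPX

open Cfsg Cfsg.Lie Cfsg.Agent.H209.EPX Cfsg.Agent.H894.EK

/-- `U₃(3)²` in `F₄(2)` -/
theorem row_F4_u33' (F : Type) [Field F] [Fintype F] (hF : Fintype.card F = 2) :
    Row (Nm (.psu 3 3)) ↥(chevF4.group F) 2 :=
  row_F4_u33 F fun _ hx => (Cfsg.Agent.H938.EPK.F4W.cent7_two hF hx).trans (by norm_num)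

/-- `J₂²` in `F₄(4)` -/
theorem row_F4_j2' (F : Type) [Field F] [Fintype F] (hF : Fintype.card F = 4) :
    Row (Nm .j2) ↥(chevF4.group F) 2 :=
  row_F4_j2 F fun _ hx => (Cfsg.Agent.H938.EPK.F4W.cent7_four hF hx).trans (by norm_num)

end Cfsg.Agent.H523.EPX
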