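import Cfsg.Agent.H523.EPX.AdjF4
import Cfsg.Agent.H523.EPX.KSeven
import Cfsg.Agent.H894.EK.Rows
import Cfsg.Agent.SmallSimple.S1000.PSLFacts
import Cfsg.Agent.S1163

/-!
# S5745, CrossK: the fields `a7`, `sz8`, `u33`, `j2` of `H894.EK.RowsF4` (helper523)

`a7`, `sz8` by the prime graph of `F₄(q)` (`AdjF4`), `u33`, `j2` by `(Z)` with the centralisers of elements of order 7 as a
hypothesis (helper938's `cent7`).
-/

set_option autoImplicit false

namespace Cfsg.Agent.H523.EPX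

open Cfsg Cfsg.Lie Cfsg.Agent.H209.EPX Cfsg.Agent.H894.EK

/-- `A₇²` in `F₄(2)` -/
theorem row_F4_a7 (F : Type) [Field F] [Fintype F] (hF : Fintype.card F = 2) :
    Row (Nm (.alt 7)) ↥(chevF4.group F) 2 := by
  intro H N T _ e h hT
  obtain ⟨eT⟩ : Nonempty (T ≃* ↥(alternatingGroup (Fin 7))) := hT
  have hc : Nat.card T = 2520 := by
    rw [Nat.card_congr eT.toEquiv, Nat.card_eq_fintype_card]
    have h1 := two_mul_card_alternatingGroup (α := Fin 7)
    rw [Fintype.card_perm, Fintype.card_fin] at h1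
    have h2 : Nat.factorial 7 = 5040 := by decide
    omega
  exact f4_two_57 h le_rfl (by rw [Nat.card_eq_fintype_card, hF]) (by rw [hc]; norm_num) (by rw [hc]; norm_num)

/-- `Sz(8)²` in `F₄(3)` -/
theorem row_F4_sz8 (F : Type) [Field F] [Fintype F] (hF : Fintype.card F = 3) :
    Row (Nm (.sz 8)) ↥(chevF4.group F) 2 := by
  intro H N T _ e h hT
  obtain ⟨K, _, _, m, hm, hK, hq, ⟨eT⟩⟩ : ∃ (F : Type) (_ : Field F) (_ : Fintype F) (m : ℕ), 1 ≤ m ∧
      Fintype.card F = 8 ∧ 8 = 2 ^ (2 * m + 1) ∧ Nonempty (T ≃* ↥(Lie.Sz F (2 ^ (m + 1)))) := hT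
  have hm1 : m = 1 := by
    have h1 : (2 : ℕ) ^ (2 * m + 1) = 2 ^ 3 := by rw [← hq]; norm_num
    have h2 := Nat.pow_right_injective (le_refl 2) h1
    omega
  subst hm1
  have hc : Nat.card T = 29120 := by
    rw [Nat.card_congr eT.toEquiv, (Cfsg.Agent.S1163.result (F := K) (m := 1) le_rfl (by rw [hK]; norm_num)).1]
    norm_num
  exact f4_three_57 h le_rfl (by rw [Nat.card_eq_fintype_card, hF]) (by rw [hc]; norm_num) (by rw [hc]; norm_num)

/-- `U₃(3)²` in `F₄(2)` -/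
theorem row_F4_u33 (F : Type) [Field F] [Fintype F]
    (hc : ∀ x : ↥(chevF4.group F), orderOf x = 7 → Nat.card (Subgroup.centralizer ({x} : Set ↥(chevF4.group F))) ≤ 13608) :
    Row (Nm (.psu 3 3)) ↥(chevF4.group F) 2 := by
  intro H N T _ e h hT
  obtain ⟨K, _, _, hK, ⟨eT⟩⟩ : ∃ (F : Type) (_ : Field F) (_ : Fintype F), Fintype.card F = 3 ^ 2 ∧
      Nonempty (T ≃* PSU 3 F 3) := hT
  refine k_u33 h le_rfl ?_ hc
  rw [Nat.card_congr eT.toEquiv]
  exact SmallSimple.PSLFacts.card_psu_three_three (by rw [hK]; norm_num)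

/-- `J₂²` in `F₄(4)` -/
theorem row_F4_j2 (F : Type) [Field F] [Fintype F]
    (hc : ∀ x : ↥(chevF4.group F), orderOf x = 7 → Nat.card (Subgroup.centralizer ({x} : Set ↥(chevF4.group F))) ≤ 4200000) :
    Row (Nm .j2) ↥(chevF4.group F) 2 := by
  intro H N T _ e h hT
  exact k_j2' h le_rfl hT hc

end Cfsg.Agent.H523.EPX
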